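import Cfsg.Agent.LinP.NormalRank
import Cfsg.Agent.LinP.Lin
import Cfsg.Agent.LinP.Catalan
import Cfsg.Agent.S3381

set_option autoImplicit false

namespace Cfsg.Agent.LinP

open Subgroup

section general

variable {F : Type*} [Field F] {V : Type*} [AddCommGroup V] [Module F V]
  {G : Type*} [Group G] (ρ : G →* (V ≃ₗ[F] V)) {p : ℕ}

theorem maschke [Finite G] (hG : (Nat.card G : F) ≠ 0) (U : Submodule F V)
    (hU : ∀ g : G, ∀ w ∈ U, ρ g w ∈ U) :
    ∃ W : Submodule F V, (∀ g : G, ∀ w ∈ W, ρ g w ∈ W) ∧ IsCompl U W := by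
  have : NeZero (Nat.card G : F) := ⟨hG⟩
  let σ : Representation F G V := LinearEquiv.automorphismGroup.toLinearMapMonoidHom.comp ρ
  obtain ⟨W, hW⟩ := exists_isCompl (⟨U, fun g v hv => hU g v hv⟩ : Subrepresentation σ)
  refine ⟨W.toSubmodule, fun g w hw => W.apply_mem_toSubmodule g hw, ?_, ?_⟩
  · rw [disjoint_iff]
    exact congrArg Subrepresentation.toSubmodule hW.inf_eq_bot
  · rw [codisjoint_iff]
    exact congrArg Subrepresentation.toSubmodule hW.sup_eq_top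

theorem fix_of_fix_add {U W : Submodule F V} (hd : Disjoint U W) {u w u' w' : V} (hu : u ∈ U)
    (hw : w ∈ W) (hu' : u' ∈ U) (hw' : w' ∈ W) (h : u' + w' = u + w) : u' = u ∧ w' = w := by
  have h1 : u' - u = w - w' := by rw [sub_eq_sub_iff_add_eq_add, h, add_comm]
  have h2 : u' - u = 0 := (Submodule.disjoint_def.1 hd) _ (U.sub_mem hu' hu) (h1 ▸ W.sub_mem hw hw')
  refine ⟨sub_eq_zero.1 h2, ?_⟩
  rw [h2] at h1
  exact (sub_eq_zero.1 h1.symm).symm

theorem add_ne_zero_of_disjoint {U W : Submodule F V} (hd : Disjoint U W) {u w : V} (hu : u ∈ U)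
    (hw : w ∈ W) (hu0 : u ≠ 0) : u + w ≠ 0 := by
  intro h
  exact hu0 (fix_of_fix_add hd U.zero_mem W.zero_mem hu hw (by rw [h, add_zero])).1

theorem irreducible_of_half [Finite G] (hρ : Function.Injective ρ) (hG : (Nat.card G : F) ≠ 0)
    (hhalf : ∀ v w : V, v ≠ 0 → w ≠ 0 → Nat.card (stab ρ v) = Nat.card (stab ρ w))
    {v₀ : V} (hv₀ : v₀ ≠ 0) (hs : stab ρ v₀ ≠ ⊥) (U : Submodule F V)
    (hU : ∀ g : G, ∀ w ∈ U, ρ g w ∈ U) : U = ⊥ ∨ U = ⊤ := by
  by_contra hcon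
  push Not at hcon
  obtain ⟨W, hW, hc⟩ := maschke ρ hG U hU
  obtain ⟨u₀, hu₀, hu₀'⟩ := Submodule.exists_mem_ne_zero_of_ne_bot hcon.1
  have hW0 : W ≠ ⊥ := by
    rintro rfl
    exact hcon.2 (by simpa using hc.sup_eq_top)
  obtain ⟨w₀, hw₀, hw₀'⟩ := Submodule.exists_mem_ne_zero_of_ne_bot hW0
  have key : ∀ u ∈ U, ∀ w ∈ W, u ≠ 0 → w ≠ 0 → stab ρ u = stab ρ w := by
    intro u hu w hw hu0 hw0
    have h0 := add_ne_zero_of_disjoint hc.disjoint hu hw hu0
    have h1 : ∀ g ∈ stab ρ (u + w), ρ g u = u ∧ ρ g w = w := fun g hg =>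
      fix_of_fix_add hc.disjoint hu hw (hU g u hu) (hW g w hw) (by rw [← map_add]; exact hg)
    rw [← Subgroup.eq_of_le_of_card_ge (H := stab ρ (u + w)) (K := stab ρ u)
        (fun g hg => (h1 g hg).1) (hhalf _ _ hu0 h0).le,
      ← Subgroup.eq_of_le_of_card_ge (H := stab ρ (u + w)) (K := stab ρ w)
        (fun g hg => (h1 g hg).2) (hhalf _ _ hw0 h0).le]
  apply hs
  rw [← Subgroup.card_eq_one, hhalf v₀ u₀ hv₀ hu₀', Subgroup.card_eq_one, eq_bot_iff]
  intro g hg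
  rw [mem_bot]
  apply eq_one_of_fx_eq_top ρ hρ
  rw [eq_top_iff, ← hc.sup_eq_top, sup_le_iff]
  constructor
  · intro u hu
    by_cases hu0 : u = 0
    · rw [hu0]; exact Submodule.zero_mem _
    · rw [key u₀ hu₀ w₀ hw₀ hu₀' hw₀', ← key u hu w₀ hw₀ hu0 hw₀'] at hg
      exact hg
  · intro w hw
    by_cases hw0 : w = 0
    · rw [hw0]; exact Submodule.zero_mem _
    · rw [key u₀ hu₀ w hw hu₀' hw0] at hg
      exact hg

theorem eq_one_or_eq_of_mem_zpowers {c x : G} (hc : c * c = 1) (hx : x ∈ zpowers c) :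
    x = 1 ∨ x = c := by
  obtain ⟨k, rfl⟩ := mem_zpowers_iff.1 hx
  have h2 : c ^ (2 : ℤ) = 1 := by rw [zpow_two, hc]
  rcases Int.even_or_odd' k with ⟨m, rfl | rfl⟩
  · left; rw [zpow_mul, h2, one_zpow]
  · right; rw [zpow_add, zpow_mul, h2, one_zpow, zpow_one, one_mul]

theorem card_le_two_of_inf_eq_bot [Finite G] {S H : Subgroup G} (hH : H.index = 2)
    (h : S ⊓ H = ⊥) : Nat.card S ≤ 2 := by
  rw [← hH]
  apply Nat.card_le_card_of_injective (fun s : S => (QuotientGroup.mk s : G ⧸ H))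
  intro s t hst
  have h1 : (s : G)⁻¹ * t ∈ S ⊓ H :=
    ⟨S.mul_mem (S.inv_mem s.2) t.2, QuotientGroup.eq.1 hst⟩
  rw [h, mem_bot, inv_mul_eq_one] at h1
  exact Subtype.ext h1

theorem rho_eq_neg {z : G} (hz : z * z = 1) (hfz : fx ρ z = ⊥) (v : V) : ρ z v = -v := by
  have : v + ρ z v ∈ fx ρ z := by
    rw [mem_fx, map_add, ← rho_mul, hz, rho_one, add_comm]
  rw [hfz] at this
  exact eq_neg_of_add_eq_zero_right this

theorem char_ne_of_irreducible [Finite V] [Nontrivial V] [hp : Fact p.Prime] (hG : IsPGroup p G)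
    {z : G} (hfz : fx ρ z = ⊥) : (p : F) ≠ 0 := by
  intro h
  obtain ⟨v, hv, hv'⟩ := exists_fixed_vector ρ hG h
  have : v ∈ fx ρ z := hv' z
  rw [hfz] at this
  exact hv this

/-- In the imprimitive half-transitive case the prime is `2`. -/
theorem two_of_half [Finite G] [Finite V] [Nontrivial V] [hp : Fact p.Prime] (hG : IsPGroup p G)
    (hρ : Function.Injective ρ)
    (hirr : ∀ W : Submodule F V, (∀ g : G, ∀ w ∈ W, ρ g w ∈ W) → W = ⊥ ∨ W = ⊤)
    (hhalf : ∀ v w : V, v ≠ 0 → w ≠ 0 → Nat.card (stab ρ v) = Nat.card (stab ρ w))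
    (h2 : HasNormalRank2 p G) : p = 2 := by
  obtain ⟨z, c, hzc, hz, hc, hcz, hcomm⟩ := h2
  have hz1 : z ≠ 1 := by rintro rfl; rw [orderOf_one] at hz; exact hp.out.ne_one hz.symm
  have hfz : fx ρ z = ⊥ := fx_eq_bot_of_central ρ hρ hirr hzc hz1
  have hpF : (p : F) ≠ 0 := char_ne_of_irreducible ρ hG hfz
  have hzc' : Commute z c := (mem_center_iff.1 hzc c).symm
  have hle : zpowers z ≤ center G := zpowers_le_of_mem hzc
  have hne1 : ∀ i : ZMod p, zmodPow z i * c ≠ 1 := by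
    intro i h
    apply hcz
    rw [mul_eq_one_iff_inv_eq] at h
    rw [← h]; exact inv_mem (zmodPow_mem z i)
  obtain ⟨i₀, hi₀⟩ := exists_fx_ne_bot ρ hpF hz hfz hzc' hc
  have hcc : c ∉ center G := by
    intro h
    exact hi₀ (fx_eq_bot_of_central ρ hρ hirr (mul_mem (hle (zmodPow_mem z i₀)) h) (hne1 i₀))
  set W : ZMod p → Submodule F V := fun i => fx ρ (zmodPow z i * c) with hW
  have hind : iSupIndep W := iSupIndep_fx ρ hpF hz hfz hzc'
  have hshift : ∀ g : G, ∃ k : ZMod p, (k = 0 → g * c = c * g) ∧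
      ∀ i, ∀ w ∈ W i, ρ g w ∈ W (i + k) := by
    intro g
    obtain ⟨k, hk⟩ := exists_zmodPow_eq hz (hcomm g)
    refine ⟨k, ?_, fun i w hw => ?_⟩
    · rintro rfl
      rwa [(zmodPow_eq_one_iff hz 0).2 rfl, eq_comm, mul_inv_eq_one, mul_inv_eq_iff_eq_mul] at hk
    · have := rho_mem_fx_conj ρ g hw
      simp only [hW]
      convert this using 2
      rw [zmodPow_add hz, hk, ← mul_assoc g, mem_center_iff.1 (hle (zmodPow_mem z i)) g]
      group
  obtain ⟨g₀, hg₀⟩ : ∃ g, g * c ≠ c * g := by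
    by_contra h; push Not at h; exact hcc (mem_center_iff.2 h)
  obtain ⟨k₀, hk₀, hk₀'⟩ := hshift g₀
  have hk0 : k₀ ≠ 0 := fun h => hg₀ (hk₀ h)
  obtain ⟨v₀, hv₀, hv₀'⟩ := Submodule.exists_mem_ne_zero_of_ne_bot hi₀
  have hv₁ := hk₀' i₀ v₀ hv₀
  have hv₁' : ρ g₀ v₀ ≠ 0 := by simpa using hv₀'
  set v₁ := ρ g₀ v₀
  set i₁ := i₀ + k₀ with hi₁
  have hne : i₀ ≠ i₁ := by simpa [hi₁] using hk0
  have hd : Disjoint (W i₀) (W i₁) := hind.pairwiseDisjoint hne
  have hsum := add_ne_zero_of_disjoint hd hv₀ hv₁ hv₀'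
  by_contra hp2
  have h1 : ∀ g ∈ stab ρ (v₀ + v₁), ρ g v₀ = v₀ ∧ ρ g v₁ = v₁ := by
    intro g hg
    have hg' : ρ g v₀ + ρ g v₁ = v₀ + v₁ := by rw [← map_add]; exact hg
    obtain ⟨l, -, hl⟩ := hshift g
    by_cases hl0 : l = 0
    · subst hl0
      simp only [add_zero] at hl
      exact fix_of_fix_add hd hv₀ hv₁ (hl _ _ hv₀) (hl _ _ hv₁) hg'
    · exfalso
      have e0 : i₁ + l = i₀ := by
        by_contra hne'
        apply hv₀'
        apply Submodule.disjoint_def.1 (hind i₀) _ hv₀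
        have : v₀ = ρ g v₀ + ρ g v₁ - v₁ := by rw [hg']; abel
        rw [this]
        refine Submodule.sub_mem _ (Submodule.add_mem _ ?_ ?_) ?_
        · exact Submodule.mem_iSup_of_mem (i₀ + l)
            (Submodule.mem_iSup_of_mem (by simpa using hl0) (hl _ _ hv₀))
        · exact Submodule.mem_iSup_of_mem (i₁ + l) (Submodule.mem_iSup_of_mem hne' (hl _ _ hv₁))
        · exact Submodule.mem_iSup_of_mem i₁ (Submodule.mem_iSup_of_mem hne.symm hv₁)
      have e1 : i₀ + l = i₁ := by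
        by_contra hne'
        apply hv₁'
        apply Submodule.disjoint_def.1 (hind i₁) _ hv₁
        have : v₁ = ρ g v₀ + ρ g v₁ - v₀ := by rw [hg']; abel
        rw [this]
        refine Submodule.sub_mem _ (Submodule.add_mem _ ?_ ?_) ?_
        · exact Submodule.mem_iSup_of_mem (i₀ + l) (Submodule.mem_iSup_of_mem hne' (hl _ _ hv₀))
        · exact Submodule.mem_iSup_of_mem (i₁ + l)
            (Submodule.mem_iSup_of_mem (by simpa using hl0) (hl _ _ hv₁))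
        · exact Submodule.mem_iSup_of_mem i₀ (Submodule.mem_iSup_of_mem hne hv₀)
      have e2 : (2 : ZMod p) * l = 0 := by linear_combination e0 + e1
      rcases mul_eq_zero.1 e2 with h | h
      · have : ((2 : ℕ) : ZMod p) = 0 := by exact_mod_cast h
        rw [ZMod.natCast_eq_zero_iff] at this
        exact hp2 ((Nat.prime_dvd_prime_iff_eq hp.out Nat.prime_two).1 this)
      · exact hl0 h
  have h2 := Subgroup.eq_of_le_of_card_ge (H := stab ρ (v₀ + v₁)) (K := stab ρ v₀)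
        (fun g hg => (h1 g hg).1) (hhalf _ _ hv₀' hsum).le
  have h3 : zmodPow z i₀ * c ∈ stab ρ v₀ := hv₀
  rw [← h2] at h3
  exact hv₁' (Submodule.disjoint_def.1 hd _ (h1 _ h3).2 hv₁)

end general

section maxclass

variable {G : Type*} [Group G]

theorem MaxClassData.conj_ne {n : ℕ} {a b : G} (h : MaxClassData G n a b) : b * a * b⁻¹ ≠ a := by
  obtain ⟨ha, -, -, ⟨h1, -⟩ | ⟨h1, -, h3⟩⟩ := h
  · rw [h1]
    intro h2
    have : a ^ 2 = 1 := by rw [pow_two]; nth_rewrite 1 [← h2]; simp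
    rw [← orderOf_dvd_iff_pow_eq_one, ha] at this
    have h4 := Nat.le_of_dvd two_pos this
    have : 2 ^ 1 < 2 ^ (n + 2) := Nat.pow_lt_pow_right (by norm_num) (by omega)
    omega
  · rw [h3]
    intro h2
    have h4 : 2 ^ 2 ≤ 2 ^ (n + 1) := Nat.pow_le_pow_right (by norm_num) (by omega)
    have : a ^ (2 ^ (n + 1) - 2) = 1 := by
      have e : 2 ^ (n + 1) - 1 = 2 ^ (n + 1) - 2 + 1 := by omega
      rw [e, pow_succ] at h2
      simpa using h2
    rw [← orderOf_dvd_iff_pow_eq_one, ha] at this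
    have h5 := Nat.le_of_dvd (by omega) this
    rw [pow_succ 2 (n + 1)] at h5
    omega

theorem MaxClassData.z_central [Finite G] {n : ℕ} {a b : G} (h : MaxClassData G n a b) :
    a ^ 2 ^ (n + 1) ∈ center G :=
  central_of_normal_zpowers (p := 2) (IsPGroup.of_card h.card) (orderOf_omega (n := n + 1) h.1)
    (normal_zpowers_pow (Subgroup.normal_of_index_eq_two h.2.2.1) _)

theorem MaxClassData.invol_iff [Finite G] {n : ℕ} {a b : G} (h : MaxClassData G n a b) (g : G) :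
    (orderOf g = 2 ∧ g ∉ center G) ↔ (g * b⁻¹ ∈ zpowers a ∧ g * g = 1) := by
  have hi := h.2.2.1
  have hb := h.2.1
  rw [Subgroup.mul_mem_iff_of_index_two hi]
  simp only [inv_mem_iff, hb, iff_false]
  constructor
  · rintro ⟨h1, h2⟩
    have hg : g ^ 2 = 1 := by rw [← h1, pow_orderOf_eq_one]
    refine ⟨fun hg' => h2 ?_, by rw [← pow_two, hg]⟩
    exact zpowers_le_of_mem h.z_central (mem_zpowers_omega (n := n + 1) h.1 hg' hg)
  · rintro ⟨h1, h2⟩
    refine ⟨orderOf_eq_prime (by rw [pow_two, h2]) (by rintro rfl; exact h1 (one_mem _)), ?_⟩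
    intro hc
    apply h.conj_ne
    have : b * g⁻¹ ∈ zpowers a := by
      rw [Subgroup.mul_mem_iff_of_index_two hi]; simp [hb, h1]
    obtain ⟨k, hk⟩ := mem_zpowers_iff.1 this
    have e : b = a ^ k * g := by rw [hk]; group
    have hc' := mem_center_iff.1 hc a
    rw [e, mul_assoc (a ^ k), ← hc']; group

theorem card_invol_eq [Finite G] {n : ℕ} {a b d : G} (h : MaxClassData G n a b)
    (hd : ∀ x, x ∈ zpowers d ↔ x ∈ zpowers a ∧ (x * b) * (x * b) = 1) :
    Nat.card {g : G // orderOf g = 2 ∧ g ∉ center G} = orderOf d := by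
  rw [← Nat.card_zpowers]
  symm
  apply Nat.card_congr
  refine (Equiv.mulRight b).subtypeEquiv fun x => ?_
  rw [h.invol_iff, hd]
  simp

variable {q : ℕ} [hq : Fact q.Prime] {V : Type*} [AddCommGroup V] [Module (ZMod q) V]
  (ρ : G →* (V ≃ₗ[ZMod q] V))

theorem maxClass_case [Finite G] [Finite V] [Nontrivial V] {n : ℕ} {a b : G}
    (h : MaxClassData G n a b) (hρ : Function.Injective ρ)
    (hirr : ∀ W : Submodule (ZMod q) V, (∀ g : G, ∀ w ∈ W, ρ g w ∈ W) → W = ⊥ ∨ W = ⊤)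
    (hhalf : ∀ v w : V, v ≠ 0 → w ≠ 0 → Nat.card (stab ρ v) = Nat.card (stab ρ w)) :
    ((∀ v, v ≠ 0 → stab ρ v = ⊥) ∧ Nonempty (G ≃* QuaternionGroup (2 ^ (n + 1)))) ∨
    ((∀ v, v ≠ 0 → Nat.card (stab ρ v) = 2) ∧ Nat.card V = q ^ 2 ∧
      ((q + 1 = 2 ^ (n + 2) ∧ Nonempty (G ≃* DihedralGroup (2 ^ (n + 2)))) ∨
        (q + 1 = 2 ^ (n + 1) ∧ Cfsg.IsQuasiDihedral G))) := by
  have hG : IsPGroup 2 G := IsPGroup.of_card h.card
  have hzo := orderOf_omega (n := n + 1) h.1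
  have hzc := h.z_central
  set z := a ^ 2 ^ (n + 1) with hz
  have hz1 : z ≠ 1 := by intro h; rw [h] at hzo; simp at hzo
  have hzz : z * z = 1 := by rw [← pow_two, ← hzo, pow_orderOf_eq_one]
  have hfz : fx ρ z = ⊥ := fx_eq_bot_of_central ρ hρ hirr hzc hz1
  -- every non-trivial stabilizer contains a non-central involution
  have hinv : ∀ v, v ≠ 0 → ∀ S : Subgroup G, S ≤ stab ρ v → S ≠ ⊥ →
      ∃ t ∈ S, orderOf t = 2 ∧ t ∉ center G := by
    intro v hv S hS hS'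
    have hdvd : 2 ∣ Nat.card S := by
      rcases (hG.to_subgroup S).card_eq_or_dvd with h | h
      · exact absurd (Subgroup.card_eq_one.1 h) hS'
      · exact h
    obtain ⟨t, ht⟩ := exists_prime_orderOf_dvd_card' 2 hdvd
    rw [← Subgroup.orderOf_coe] at ht
    refine ⟨t, t.2, ht, fun hc => hv ?_⟩
    have : v ∈ fx ρ (t : G) := hS t.2
    rwa [fx_eq_bot_of_central ρ hρ hirr hc (by intro h; rw [h] at ht; simp at ht)] at this
  have hA : ∀ v, v ≠ 0 → stab ρ v ⊓ zpowers a = ⊥ := by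
    intro v hv
    by_contra hne
    obtain ⟨t, ht, ht'⟩ := hinv v hv _ inf_le_left hne
    have := ((h.invol_iff t).1 ht').1
    rw [Subgroup.mul_mem_cancel_left _ ht.2, inv_mem_iff] at this
    exact h.2.1 this
  have hle2 : ∀ v, v ≠ 0 → Nat.card (stab ρ v) ≤ 2 := fun v hv =>
    card_le_two_of_inf_eq_bot h.2.2.1 (hA v hv)
  have hmain : b * b = 1 → (∀ v, v ≠ 0 → Nat.card (stab ρ v) = 2) ∧ ∃ r : ℕ, r ≠ 0 ∧
      Nat.card V = q ^ (2 * r) ∧ Nat.card {g : G // orderOf g = 2 ∧ g ∉ center G} = q ^ r + 1 := by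
    intro hbb
    have hb := (h.invol_iff b).2 ⟨by simp, hbb⟩
    have hfb : fx ρ b ≠ ⊥ := by
      intro hfb
      apply hb.2
      have : b = z := by
        apply hρ; ext v
        rw [rho_eq_neg ρ hbb hfb, rho_eq_neg ρ hzz hfz]
      rw [this]; exact hzc
    obtain ⟨v₀, hv₀, hv₀'⟩ := Submodule.exists_mem_ne_zero_of_ne_bot hfb
    have h2 : ∀ v, v ≠ 0 → Nat.card (stab ρ v) = 2 := by
      intro v hv
      apply le_antisymm (hle2 v hv)
      rw [hhalf v v₀ hv hv₀', ← hb.1, ← Nat.card_zpowers]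
      exact Subgroup.card_le_of_le (zpowers_le_of_mem hv₀)
    obtain ⟨r, hr, hr'⟩ := Cfsg.Agent.S3381.result q ρ hρ h2 z hzo hzc
    refine ⟨h2, r, ?_, hr, hr'⟩
    rintro rfl
    have := Finite.one_lt_card (α := V)
    simp [hr] at this
  obtain ⟨ha, hb, hi, ⟨h1, h2 | h2⟩ | ⟨h1, h2, h3⟩⟩ := id h
  · right
    obtain ⟨h4, r, hr0, hr, hr'⟩ := hmain h2
    rw [card_invol_eq h (d := a), ha] at hr'
    · obtain rfl := eq_one_of_pow_add_one_eq_two_pow hq.out.one_lt hr0 hr'.symm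
      exact ⟨h4, hr, Or.inl ⟨by simpa using hr'.symm, dihedral_equiv ha h2 h1 hb hi⟩⟩
    · intro x
      refine ⟨fun hx => ⟨hx, ?_⟩, fun hx => hx.1⟩
      obtain ⟨i, rfl⟩ := mem_zpowers_iff.1 hx
      have : a ^ i * b * (a ^ i * b) = a ^ i * (b * a ^ i * b⁻¹) * (b * b) := by group
      rw [this, ← conj_zpow, h1, h2]; group
  · left
    refine ⟨fun v hv => ?_, quaternion_equiv (by rw [ha]; ring) h2 h1 hb hi⟩
    by_contra hne
    obtain ⟨t, -, ht'⟩ := hinv v hv _ le_rfl hne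
    obtain ⟨h5, h6⟩ := (h.invol_iff t).1 ht'
    obtain ⟨i, hi⟩ := mem_zpowers_iff.1 h5
    have e : t = a ^ i * b := by rw [hi]; group
    have : a ^ i * b * (a ^ i * b) = a ^ i * (b * a ^ i * b⁻¹) * (b * b) := by group
    rw [e, this, ← conj_zpow, h1, h2] at h6
    apply hz1
    rw [← h6, hz]; group
  · right
    obtain ⟨h4, r, hr0, hr, hr'⟩ := hmain h2
    have ha2 : orderOf (a ^ 2) = 2 ^ (n + 1) := by
      rw [orderOf_pow' _ two_ne_zero, ha, Nat.gcd_eq_right (dvd_pow_self _ (by omega)), pow_succ,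
        Nat.mul_div_cancel _ two_pos]
    rw [card_invol_eq h (d := a ^ 2), ha2] at hr'
    · obtain rfl := eq_one_of_pow_add_one_eq_two_pow hq.out.one_lt hr0 hr'.symm
      refine ⟨h4, hr, Or.inr ⟨by simpa using hr'.symm, n + 2, by omega, h.card, a, b, ha, ?_, h3⟩⟩
      apply orderOf_eq_prime (by rw [pow_two, h2])
      rintro rfl
      exact hb (one_mem _)
    · have key : ∀ i : ℤ, a ^ i * b * (a ^ i * b) = 1 ↔ 2 ∣ i := by
        intro i
        have : a ^ i * b * (a ^ i * b) = a ^ i * (b * a ^ i * b⁻¹) * (b * b) := by group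
        rw [this, ← conj_zpow, h3, h2, mul_one, ← zpow_natCast, ← zpow_mul, ← zpow_add,
          ← orderOf_dvd_iff_zpow_eq_one, ha, Nat.cast_sub Nat.one_le_two_pow]
        push_cast
        have e : i + (2 ^ (n + 1) - 1) * i = 2 ^ (n + 1) * i := by ring
        rw [e, pow_succ 2 (n + 1), mul_dvd_mul_iff_left (by positivity)]
      intro x
      constructor
      · intro hx
        obtain ⟨i, rfl⟩ := mem_zpowers_iff.1 hx
        rw [← zpow_natCast, ← zpow_mul]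
        exact ⟨zpow_mem_zpowers _ _, (key _).2 (dvd_mul_right _ _)⟩
      · rintro ⟨hx, hx'⟩
        obtain ⟨i, rfl⟩ := mem_zpowers_iff.1 hx
        obtain ⟨j, rfl⟩ := (key i).1 hx'
        exact mem_zpowers_iff.2 ⟨j, by rw [← zpow_natCast, ← zpow_mul]; rfl⟩

end maxclass

end Cfsg.Agent.LinP
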