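import Cfsg.Agent.LinP.Half

set_option autoImplicit false

namespace Cfsg.Agent.LinP

open Subgroup

section general

variable {F : Type*} [Field F] {V : Type*} [AddCommGroup V] [Module F V]
  {G : Type*} [Group G] (ρ : G →* (V ≃ₗ[F] V))

theorem rank2_two [Finite G] [Finite V] [Nontrivial V] (hG : IsPGroup 2 G)
    (hρ : Function.Injective ρ)
    (hirr : ∀ W : Submodule F V, (∀ g : G, ∀ w ∈ W, ρ g w ∈ W) → W = ⊥ ∨ W = ⊤)
    (h2 : HasNormalRank2 2 G) :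
    ∃ (c : G) (H : Subgroup G) (W₀ W₁ : Submodule F V), (2 : F) ≠ 0 ∧ c * c = 1 ∧ H.index = 2 ∧
      IsCompl W₀ W₁ ∧ W₀ ≠ ⊥ ∧ W₁ ≠ ⊥ ∧ (∀ v ∈ W₀, ρ c v = v) ∧ (∀ v ∈ W₁, ρ c v = -v) ∧
      (∀ g ∈ H, (∀ v ∈ W₀, ρ g v ∈ W₀) ∧ (∀ v ∈ W₁, ρ g v ∈ W₁)) ∧
      (∀ g ∉ H, (∀ v ∈ W₀, ρ g v ∈ W₁) ∧ (∀ v ∈ W₁, ρ g v ∈ W₀)) := by
  obtain ⟨z, c, hzc, hz, hc, hcz, hcomm⟩ := h2
  have hz1 : z ≠ 1 := by rintro rfl; simp at hz
  have hfz : fx ρ z = ⊥ := fx_eq_bot_of_central ρ hρ hirr hzc hz1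
  have hpF : (2 : F) ≠ 0 := by exact_mod_cast char_ne_of_irreducible ρ hG hfz
  have hzz : z * z = 1 := by rw [← pow_two, ← hz, pow_orderOf_eq_one]
  have hcc : c * c = 1 := by rw [← pow_two, hc]
  have hneg := rho_eq_neg ρ hzz hfz
  have hW1 : ∀ v, v ∈ fx ρ (z * c) ↔ ρ c v = -v := by
    intro v
    rw [mem_fx, rho_mul, hneg, neg_eq_iff_eq_neg]
  have hcv : ∀ v, ρ c (ρ c v) = v := fun v => by rw [← rho_mul, hcc, rho_one]
  have hcompl : IsCompl (fx ρ c) (fx ρ (z * c)) := by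
    constructor
    · rw [Submodule.disjoint_def]
      intro v h1 h2
      rw [hW1, (mem_fx ρ).1 h1, eq_neg_iff_add_eq_zero, ← two_smul F] at h2
      exact (smul_eq_zero.1 h2).resolve_left hpF
    · rw [codisjoint_iff, eq_top_iff]
      intro v _
      have : v = (2 : F)⁻¹ • (v + ρ c v) + (2 : F)⁻¹ • (v - ρ c v) := by
        rw [← smul_add]
        have : v + ρ c v + (v - ρ c v) = (2 : F) • v := by rw [two_smul]; abel
        rw [this, smul_smul, inv_mul_cancel₀ hpF, one_smul]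
      rw [this]
      apply Submodule.add_mem_sup
      · apply Submodule.smul_mem
        rw [mem_fx, map_add, hcv, add_comm]
      · apply Submodule.smul_mem
        rw [hW1, map_sub, hcv, neg_sub]
  have hc1 : c ≠ 1 := by rintro rfl; exact hcz (one_mem _)
  have hzc1 : z * c ≠ 1 := by
    intro h
    apply hcz
    rw [mul_eq_one_iff_inv_eq] at h
    rw [← h]; exact inv_mem (mem_zpowers z)
  have hb0 : fx ρ c ≠ ⊥ := by
    intro h
    have := hcompl.sup_eq_top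
    rw [h, bot_sup_eq] at this
    exact hzc1 (eq_one_of_fx_eq_top ρ hρ this)
  have hb1 : fx ρ (z * c) ≠ ⊥ := by
    intro h
    have := hcompl.sup_eq_top
    rw [h, sup_bot_eq] at this
    exact hc1 (eq_one_of_fx_eq_top ρ hρ this)
  have hcen : c ∉ center G := fun h => hb0 (fx_eq_bot_of_central ρ hρ hirr h hc1)
  refine ⟨c, centralizer {c}, fx ρ c, fx ρ (z * c), hpF, hcc,
    index_centralizer_eq hzc hz hcomm hcen, hcompl, hb0, hb1, fun v hv => hv,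
    fun v hv => (hW1 v).1 hv, fun g hg => ?_, fun g hg => ?_⟩
  · rw [mem_centralizer_singleton_iff] at hg
    refine ⟨fun v hv => rho_mem_fx_of_commute ρ hg hv, fun v hv => rho_mem_fx_of_commute ρ ?_ hv⟩
    rw [← mul_assoc, mem_center_iff.1 hzc g, mul_assoc, hg, mul_assoc]
  · rw [mem_centralizer_singleton_iff] at hg
    have h1 : g * c * g⁻¹ = z * c := by
      rcases eq_one_or_eq_of_mem_zpowers hzz (hcomm g) with h | h
      · exact absurd (by rwa [mul_inv_eq_one, mul_inv_eq_iff_eq_mul] at h) hg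
      · rw [← h]; group
    have h2 : g * (z * c) * g⁻¹ = c := by
      rw [← mul_assoc, mem_center_iff.1 hzc g, mul_assoc z, mul_assoc z, h1, ← mul_assoc, hzz,
        one_mul]
    exact ⟨fun v hv => h1 ▸ rho_mem_fx_conj ρ g hv, fun v hv => h2 ▸ rho_mem_fx_conj ρ g hv⟩

end general

variable {q : ℕ} [hq : Fact q.Prime] {V : Type*} [AddCommGroup V] [Module (ZMod q) V]
  {G : Type*} [Group G] (ρ : G →* (V ≃ₗ[ZMod q] V))

theorem rank2_half [Finite G] [Finite V] [Nontrivial V] (hG : IsPGroup 2 G)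
    (hρ : Function.Injective ρ)
    (hirr : ∀ W : Submodule (ZMod q) V, (∀ g : G, ∀ w ∈ W, ρ g w ∈ W) → W = ⊥ ∨ W = ⊤)
    (hhalf : ∀ v w : V, v ≠ 0 → w ≠ 0 → Nat.card (stab ρ v) = Nat.card (stab ρ w))
    (h2 : HasNormalRank2 2 G) :
    (Nat.card V = q ^ 2 ∧ (∃ m : ℕ, q = 2 ^ m + 1) ∧
      ∃ e : V ≃ₗ[ZMod q] (Fin 2 → ZMod q), ∀ f : (Fin 2 → ZMod q) ≃ₗ[ZMod q] (Fin 2 → ZMod q),
        (∃ g : G, f = e.symm.trans ((ρ g).trans e)) ↔
        ∃ a s : ZMod q, a ≠ 0 ∧ (s = 1 ∨ s = -1) ∧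
          ((∀ v, f v = ![a * v 0, s * a⁻¹ * v 1]) ∨ (∀ v, f v = ![s * a⁻¹ * v 1, a * v 0]))) ∨
    (Nat.card V = 81 ∧ q = 3) := by
  obtain ⟨c, H, W₀, W₁, h2F, hcc, hH, hcompl, hb0, hb1, hc0, hc1, hin, hout⟩ :=
    rank2_two ρ hG hρ hirr h2
  have hd := hcompl.disjoint
  have : Module.Finite (ZMod q) V := Module.Finite.of_finite
  have hswap : ∀ v₀ ∈ W₀, ∀ v₁ ∈ W₁, v₀ ≠ 0 → v₁ ≠ 0 →
      ∃ g, g ∉ H ∧ ρ g v₀ = v₁ ∧ ρ g v₁ = v₀ := by
    intro v₀ hv₀ v₁ hv₁ hv₀' hv₁'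
    by_contra hcon
    push Not at hcon
    have hsum := add_ne_zero_of_disjoint hd hv₀ hv₁ hv₀'
    have h1 : ∀ g ∈ stab ρ (v₀ + v₁), ρ g v₀ = v₀ ∧ ρ g v₁ = v₁ := by
      intro g hg
      have hg' : ρ g v₀ + ρ g v₁ = v₀ + v₁ := by rw [← map_add]; exact hg
      by_cases hgH : g ∈ H
      · exact fix_of_fix_add hd hv₀ hv₁ ((hin g hgH).1 _ hv₀) ((hin g hgH).2 _ hv₁) hg'
      · rw [add_comm] at hg'
        have := fix_of_fix_add hd hv₀ hv₁ ((hout g hgH).2 _ hv₁) ((hout g hgH).1 _ hv₀) hg'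
        exact absurd this.1 (hcon g hgH this.2)
    have h2 := Subgroup.eq_of_le_of_card_ge (H := stab ρ (v₀ + v₁)) (K := stab ρ v₀)
        (fun g hg => (h1 g hg).1) (hhalf _ _ hv₀' hsum).le
    have h3 : c ∈ stab ρ v₀ := hc0 v₀ hv₀
    rw [← h2] at h3
    have h4 := (h1 _ h3).2
    rw [hc1 _ hv₁, neg_eq_iff_add_eq_zero, ← two_smul (ZMod q)] at h4
    exact hv₁' ((smul_eq_zero.1 h4).resolve_left h2F)
  obtain ⟨e₀, he₀, he₀'⟩ := Submodule.exists_mem_ne_zero_of_ne_bot hb0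
  obtain ⟨e₁, he₁, he₁'⟩ := Submodule.exists_mem_ne_zero_of_ne_bot hb1
  obtain ⟨w, hwH, hw0, hw1⟩ := hswap e₀ he₀ e₁ he₁ he₀' he₁'
  -- the orbit of `e₀` under `H`
  have horb : {u : V | ∃ h : H, (ρ.comp H.subtype) h e₀ = u} = (W₀ : Set V) \ {0} := by
    ext u
    constructor
    · rintro ⟨h, rfl⟩
      exact ⟨(hin h h.2).1 _ he₀, by simpa using he₀'⟩
    · rintro ⟨hu, hu0⟩
      obtain ⟨g, hgH, -, hg1⟩ := hswap u hu e₁ he₁ hu0 he₁'
      refine ⟨⟨g * w, ?_⟩, ?_⟩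
      · rw [Subgroup.mul_mem_iff_of_index_two hH]; simp [hgH, hwH]
      · change ρ (g * w) e₀ = u
        rw [rho_mul, hw0, hg1]
  obtain ⟨j, hj⟩ := (hG.to_subgroup H).index (stab (ρ.comp H.subtype) e₀)
  rw [← card_orbit_eq_index, horb, Nat.card_coe_set_eq,
    Set.ncard_diff_singleton_of_mem (by simp), ← Nat.card_coe_set_eq] at hj
  change Nat.card W₀ - 1 = _ at hj
  set d := Module.finrank (ZMod q) W₀ with hdd
  have hcW : Nat.card W₀ = q ^ d := by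
    rw [Module.natCard_eq_pow_finrank (K := ZMod q), Nat.card_zmod]
  have hqd : q ^ d = 2 ^ j + 1 := by
    have : 0 < q ^ d := pow_pos hq.out.pos _
    omega
  have hd1 : Module.finrank (ZMod q) W₁ = d := by
    apply le_antisymm
    · rw [← LinearEquiv.finrank_map_eq (ρ w) W₁]
      apply Submodule.finrank_mono
      rintro _ ⟨v, hv, rfl⟩
      exact (hout w hwH).2 v hv
    · rw [hdd, ← LinearEquiv.finrank_map_eq (ρ w) W₀]
      apply Submodule.finrank_mono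
      rintro _ ⟨v, hv, rfl⟩
      exact (hout w hwH).1 v hv
  have hdV : Module.finrank (ZMod q) V = 2 * d := by
    rw [← Submodule.finrank_add_eq_of_isCompl hcompl, hd1, two_mul]
  have hcV : Nat.card V = q ^ (2 * d) := by
    rw [Module.natCard_eq_pow_finrank (K := ZMod q), Nat.card_zmod, hdV]
  have hd0 : d ≠ 0 := by
    intro h
    exact hb0 (Submodule.finrank_eq_zero.1 h)
  by_cases hd2 : 2 ≤ d
  · right
    obtain ⟨h3, h4⟩ := eq_three_of_pow_eq_two_pow_add_one hd2 hqd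
    rw [hcV, h4, h3]
    exact ⟨by norm_num, rfl⟩
  left
  have hd' : d = 1 := by omega
  rw [hd'] at hcV hqd hdV hd1
  refine ⟨hcV, ⟨j, by simpa using hqd⟩, ?_⟩
  have hsp0 : ∀ v ∈ W₀, ∃ a : ZMod q, a • e₀ = v := by
    intro v hv
    obtain ⟨a, ha⟩ := (finrank_eq_one_iff_of_nonzero' (⟨e₀, he₀⟩ : W₀)
      (by simpa using he₀')).1 (hdd ▸ hd') ⟨v, hv⟩
    exact ⟨a, congrArg Subtype.val ha⟩
  have hsp1 : ∀ v ∈ W₁, ∃ a : ZMod q, a • e₁ = v := by
    intro v hv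
    obtain ⟨a, ha⟩ := (finrank_eq_one_iff_of_nonzero' (⟨e₁, he₁⟩ : W₁)
      (by simpa using he₁')).1 hd1 ⟨v, hv⟩
    exact ⟨a, congrArg Subtype.val ha⟩
  have hli : LinearIndependent (ZMod q) ![e₀, e₁] := by
    rw [LinearIndependent.pair_iff]
    intro s t hst
    have := fix_of_fix_add hd W₀.zero_mem W₁.zero_mem (W₀.smul_mem s he₀) (W₁.smul_mem t he₁)
      (by rw [hst, add_zero])
    exact ⟨(smul_eq_zero.1 this.1).resolve_right he₀', (smul_eq_zero.1 this.2).resolve_right he₁'⟩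
  let B := basisOfLinearIndependentOfCardEqFinrank hli (by simp [hdV])
  have hB0 : B 0 = e₀ := by simp [B]
  have hB1 : B 1 = e₁ := by simp [B]
  have hsymm : ∀ v : Fin 2 → ZMod q, B.equivFun.symm v = v 0 • e₀ + v 1 • e₁ := by
    intro v
    rw [Module.Basis.equivFun_symm_apply, Fin.sum_univ_two, hB0, hB1]
  have hD : ∀ (g : G) (a b : ZMod q), ρ g e₀ = a • e₀ → ρ g e₁ = b • e₁ → ∀ v,
      (B.equivFun.symm.trans ((ρ g).trans B.equivFun)) v = ![a * v 0, b * v 1] := by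
    intro g a b h0 h1 v
    simp only [LinearEquiv.trans_apply]
    rw [← LinearEquiv.eq_symm_apply, hsymm, hsymm, map_add, map_smul, map_smul, h0, h1]
    simp [smul_smul, mul_comm]
  have hA : ∀ (g : G) (a b : ZMod q), ρ g e₀ = a • e₁ → ρ g e₁ = b • e₀ → ∀ v,
      (B.equivFun.symm.trans ((ρ g).trans B.equivFun)) v = ![b * v 1, a * v 0] := by
    intro g a b h0 h1 v
    simp only [LinearEquiv.trans_apply]
    rw [← LinearEquiv.eq_symm_apply, hsymm, hsymm, map_add, map_smul, map_smul, h0, h1]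
    simp [smul_smul, mul_comm, add_comm]
  have hga : ∀ a : ZMod q, a ≠ 0 → ∃ g, ρ g e₀ = a • e₁ ∧ ρ g e₁ = a⁻¹ • e₀ := by
    intro a ha
    obtain ⟨g, -, hg0, hg1⟩ := hswap e₀ he₀ (a • e₁) (W₁.smul_mem a he₁) he₀'
      (smul_ne_zero ha he₁')
    refine ⟨g, hg0, ?_⟩
    rw [← hg1, map_smul, smul_smul, inv_mul_cancel₀ ha, one_smul]
  have hstab : ∀ x, ρ x e₀ = e₀ → x = 1 ∨ x = c := by
    intro x hx
    apply eq_one_or_eq_of_mem_zpowers hcc
    have hsum := add_ne_zero_of_disjoint hd he₀ he₁ he₀'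
    have h1 : stab ρ (e₀ + e₁) ⊓ H = ⊥ := by
      rw [eq_bot_iff]
      rintro g ⟨hg, hgH⟩
      have hg' : ρ g e₀ + ρ g e₁ = e₀ + e₁ := by rw [← map_add]; exact hg
      have := fix_of_fix_add hd he₀ he₁ ((hin g hgH).1 _ he₀) ((hin g hgH).2 _ he₁) hg'
      rw [mem_bot]
      apply eq_one_of_fx_eq_top ρ hρ
      rw [eq_top_iff, ← hcompl.sup_eq_top, sup_le_iff]
      constructor
      · intro v hv
        obtain ⟨a, rfl⟩ := hsp0 v hv
        exact Submodule.smul_mem _ _ this.1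
      · intro v hv
        obtain ⟨a, rfl⟩ := hsp1 v hv
        exact Submodule.smul_mem _ _ this.2
    have h2 := card_le_two_of_inf_eq_bot hH h1
    rw [← hhalf _ _ he₀' hsum] at h2
    have hc1' : c ≠ 1 := by
      rintro rfl
      have h4 := hc1 _ he₁
      rw [rho_one, eq_neg_iff_add_eq_zero, ← two_smul (ZMod q)] at h4
      exact he₁' ((smul_eq_zero.1 h4).resolve_left h2F)
    have h3 : orderOf c = 2 := orderOf_eq_prime (by rw [pow_two, hcc]) hc1'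
    have h4 := Subgroup.eq_of_le_of_card_ge (H := zpowers c) (K := stab ρ e₀)
      (zpowers_le_of_mem (hc0 _ he₀)) (by rw [Nat.card_zpowers, h3]; exact h2)
    rw [h4]; exact hx
  have hanti : ∀ (g : G) (a b : ZMod q), ρ g e₀ = a • e₁ → ρ g e₁ = b • e₀ →
      a ≠ 0 ∧ ∃ s : ZMod q, (s = 1 ∨ s = -1) ∧ b = s * a⁻¹ := by
    intro g a b h0 h1
    have ha : a ≠ 0 := by
      rintro rfl
      rw [zero_smul] at h0
      exact he₀' (by simpa using h0)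
    refine ⟨ha, ?_⟩
    obtain ⟨g', hg0, hg1⟩ := hga a ha
    have hx : ρ (g'⁻¹ * g) e₀ = e₀ := by rw [rho_mul, h0, ← hg0, rho_inv_apply]
    have hinj : ∀ s t : ZMod q, s • e₀ = t • e₀ → s = t := fun s t h =>
      smul_left_injective _ he₀' h
    rcases hstab _ hx with h | h
    · rw [inv_mul_eq_one] at h
      refine ⟨1, Or.inl rfl, hinj _ _ ?_⟩
      rw [← h1, ← h, hg1, one_mul]
    · rw [inv_mul_eq_iff_eq_mul] at h
      refine ⟨-1, Or.inr rfl, hinj _ _ ?_⟩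
      rw [← h1, h, rho_mul, hc1 _ he₁, map_neg, hg1, neg_one_mul, neg_smul]
  have hga' : ∀ a s : ZMod q, a ≠ 0 → (s = 1 ∨ s = -1) →
      ∃ g, ρ g e₀ = a • e₁ ∧ ρ g e₁ = (s * a⁻¹) • e₀ := by
    intro a s ha hs
    obtain ⟨g, hg0, hg1⟩ := hga a ha
    rcases hs with rfl | rfl
    · exact ⟨g, hg0, by rw [hg1, one_mul]⟩
    · refine ⟨g * c, by rw [rho_mul, hc0 _ he₀, hg0], ?_⟩
      rw [rho_mul, hc1 _ he₁, map_neg, hg1, neg_one_mul, neg_smul]
  refine ⟨B.equivFun, fun f => ⟨?_, ?_⟩⟩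
  · rintro ⟨g, rfl⟩
    by_cases hg : g ∈ H
    · obtain ⟨a, ha⟩ := hsp0 _ ((hin g hg).1 _ he₀)
      obtain ⟨b, hb⟩ := hsp1 _ ((hin g hg).2 _ he₁)
      obtain ⟨ha0, s, hs, rfl⟩ := hanti (w * g) a b (by rw [rho_mul, ← ha, map_smul, hw0])
        (by rw [rho_mul, ← hb, map_smul, hw1])
      exact ⟨a, s, ha0, hs, Or.inl (hD g _ _ ha.symm hb.symm)⟩
    · obtain ⟨a, ha⟩ := hsp1 _ ((hout g hg).1 _ he₀)
      obtain ⟨b, hb⟩ := hsp0 _ ((hout g hg).2 _ he₁)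
      obtain ⟨ha0, s, hs, rfl⟩ := hanti g a b ha.symm hb.symm
      exact ⟨a, s, ha0, hs, Or.inr (hA g _ _ ha.symm hb.symm)⟩
  · rintro ⟨a, s, ha, hs, h⟩
    obtain ⟨g, hg0, hg1⟩ := hga' a s ha hs
    rcases h with h | h
    · refine ⟨w * g, LinearEquiv.ext fun v => ?_⟩
      rw [h, hD (w * g) a (s * a⁻¹) (by rw [rho_mul, hg0, map_smul, hw1])
        (by rw [rho_mul, hg1, map_smul, hw0])]
    · refine ⟨g, LinearEquiv.ext fun v => ?_⟩
      rw [h, hA g a (s * a⁻¹) hg0 hg1]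

end Cfsg.Agent.LinP
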