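import Mathlib

set_option autoImplicit false

namespace Cfsg.Agent.LinP

open Nat

theorem small_part_le (n : ℕ) (n_pos : 0 < n) :
    ∏ p ∈ Finset.range (2 * n / 3 + 1), p ^ (centralBinom n).factorization p ≤
      (2 * n) ^ sqrt (2 * n) * 4 ^ (2 * n / 3) := by
  have n2_pos : 1 ≤ 2 * n := mul_pos (zero_lt_two' ℕ) n_pos
  let S := {p ∈ Finset.range (2 * n / 3 + 1) | Nat.Prime p}
  let f x := x ^ n.centralBinom.factorization x
  have : ∏ x ∈ S, f x = ∏ x ∈ Finset.range (2 * n / 3 + 1), f x := by
    refine Finset.prod_filter_of_ne fun p _ h => ?_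
    contrapose h; dsimp only [f]
    rw [factorization_eq_zero_of_not_prime n.centralBinom h, _root_.pow_zero]
  rw [← this, ← Finset.prod_filter_mul_prod_filter_not S (· ≤ sqrt (2 * n))]
  apply mul_le_mul'
  · refine (Finset.prod_le_prod' fun p _ => (?_ : f p ≤ 2 * n)).trans ?_
    · exact pow_factorization_choose_le (mul_pos two_pos n_pos)
    have : (Finset.Icc 1 (sqrt (2 * n))).card = sqrt (2 * n) := by rw [card_Icc, Nat.add_sub_cancel]
    rw [Finset.prod_const]
    refine pow_right_mono₀ n2_pos ((Finset.card_le_card fun x hx => ?_).trans this.le)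
    obtain ⟨h1, h2⟩ := Finset.mem_filter.1 hx
    exact Finset.mem_Icc.mpr ⟨(Finset.mem_filter.1 h1).2.one_lt.le, h2⟩
  · refine le_trans ?_ (primorial_le_four_pow (2 * n / 3))
    refine (Finset.prod_le_prod' fun p hp => (?_ : f p ≤ p)).trans ?_
    · obtain ⟨h1, h2⟩ := Finset.mem_filter.1 hp
      refine (pow_right_mono₀ (Finset.mem_filter.1 h1).2.one_lt.le ?_).trans (pow_one p).le
      exact Nat.factorization_choose_le_one (sqrt_lt'.mp <| not_le.1 h2)
    refine Finset.prod_le_prod_of_subset_of_one_le' (Finset.filter_subset _ _) ?_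
    exact fun p hp _ => (Finset.mem_filter.1 hp).2.one_lt.le

theorem succ_le_two_pow_div_eight (s : ℕ) (hs : 48 ≤ s) : s + 1 ≤ 2 ^ (s / 8) := by
  have key : ∀ t : ℕ, 6 ≤ t → 8 * t + 8 ≤ 2 ^ t := by
    intro t ht
    induction t, ht using Nat.le_induction with
    | base => norm_num
    | succ t ht ih => rw [pow_succ]; omega
  have := key (s / 8) (by omega)
  omega

theorem two_primes_large (m : ℕ) (hm : 1152 ≤ m) :
    ∃ p r : ℕ, p.Prime ∧ r.Prime ∧ m < p ∧ p < r ∧ r ≤ 2 * m := by
  by_contra hcon
  push Not at hcon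
  obtain ⟨r, hr, hr1, hr2⟩ := Nat.exists_prime_lt_and_le_two_mul m (by omega)
  have huniq : ∀ p, p.Prime → m < p → p ≤ 2 * m → p = r := by
    intro p hp h1 h2
    rcases lt_trichotomy p r with h | h | h
    · exact absurd hr2 (not_le.2 (hcon p r hp hr h1 h))
    · exact h
    · exact absurd h2 (not_le.2 (hcon r p hr hp hr1 h))
  have h1 : centralBinom m = r ^ (centralBinom m).factorization r *
      ∏ p ∈ Finset.range (2 * m / 3 + 1), p ^ (centralBinom m).factorization p := by
    rw [← Finset.prod_insert (f := fun p => p ^ (centralBinom m).factorization p)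
      (by simp; omega)]
    refine (Eq.trans ?_ m.prod_pow_factorization_centralBinom).symm
    apply Finset.prod_subset
    · intro x hx
      simp only [Finset.mem_insert, Finset.mem_range] at hx ⊢
      omega
    intro x hx h2x
    simp only [Finset.mem_insert, Finset.mem_range, not_or] at hx h2x
    by_cases hxp : x.Prime
    · have : x ≤ m := by
        by_contra h
        exact h2x.1 (huniq x hxp (by omega) (by omega))
      rw [factorization_centralBinom_of_two_mul_self_lt_three_mul (by omega) this (by omega),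
        Nat.pow_zero]
    · rw [factorization_eq_zero_of_not_prime m.centralBinom hxp, Nat.pow_zero]
  have h2 : r ^ (centralBinom m).factorization r ≤ 2 * m :=
    pow_factorization_choose_le (by omega)
  have h3 := small_part_le m (by omega)
  have h4 := Nat.four_pow_lt_mul_centralBinom m (by omega)
  set s := sqrt (2 * m) with hs
  have hs1 : s * s ≤ 2 * m := Nat.sqrt_le _
  have hs2 : 2 * m < (s + 1) * (s + 1) := Nat.lt_succ_sqrt _
  have hs3 : 48 ≤ s := by rw [hs, Nat.le_sqrt]; omega
  have h5 := succ_le_two_pow_div_eight s hs3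
  set t := s / 8 with ht
  have h6 : 2 * m ≤ 2 ^ (2 * t) := by
    rw [two_mul t, pow_add]
    exact hs2.le.trans (Nat.mul_le_mul h5 h5)
  have h7 : m * centralBinom m ≤ 2 ^ (2 * t * (s + 2) + 2 * (2 * m / 3)) := by
    rw [h1]
    calc _ ≤ (2 * m) * ((2 * m) * ((2 * m) ^ s * 4 ^ (2 * m / 3))) := by
          gcongr; omega
      _ = (2 * m) ^ (s + 2) * 4 ^ (2 * m / 3) := by ring
      _ ≤ (2 ^ (2 * t)) ^ (s + 2) * 4 ^ (2 * m / 3) := by gcongr
      _ = _ := by rw [pow_add 2, pow_mul 2 2 (2 * m / 3), pow_mul 2 (2 * t)]; norm_num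
  have h8 : 2 ^ (2 * m) < 2 ^ (2 * t * (s + 2) + 2 * (2 * m / 3)) := by
    rw [pow_mul]; exact lt_of_lt_of_le h4 h7
  have h9 := (Nat.pow_lt_pow_iff_right (by norm_num)).1 h8
  have h10 : 8 * t ≤ s := by omega
  have h11 : 3 * (2 * m / 3) ≤ 2 * m := by omega
  nlinarith

theorem two_primes_step {m : ℕ} (a p r : ℕ) (hp : p.Prime) (hr : r.Prime) (hpr : p < r)
    (hra : r ≤ 2 * a) (ha : a ≤ m)
    (h : p ≤ m → ∃ p r : ℕ, p.Prime ∧ r.Prime ∧ m < p ∧ p < r ∧ r ≤ 2 * m) :
    ∃ p r : ℕ, p.Prime ∧ r.Prime ∧ m < p ∧ p < r ∧ r ≤ 2 * m := by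
  by_cases hm : p ≤ m
  · exact h hm
  · exact ⟨p, r, hp, hr, by omega, hpr, by omega⟩

/-- For `m ≥ 6` there are two primes in `(m, 2 m]`. -/
theorem two_primes (m : ℕ) (hm : 6 ≤ m) :
    ∃ p r : ℕ, p.Prime ∧ r.Prime ∧ m < p ∧ p < r ∧ r ≤ 2 * m := by
  refine two_primes_step 6 7 11 (by norm_num) (by norm_num) (by norm_num) (by norm_num) hm fun h => ?_
  refine two_primes_step 7 11 13 (by norm_num) (by norm_num) (by norm_num) (by norm_num) h fun h => ?_
  refine two_primes_step 11 13 19 (by norm_num) (by norm_num) (by norm_num) (by norm_num) h fun h => ?_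
  refine two_primes_step 13 19 23 (by norm_num) (by norm_num) (by norm_num) (by norm_num) h fun h => ?_
  refine two_primes_step 19 23 37 (by norm_num) (by norm_num) (by norm_num) (by norm_num) h fun h => ?_
  refine two_primes_step 23 37 43 (by norm_num) (by norm_num) (by norm_num) (by norm_num) h fun h => ?_
  refine two_primes_step 37 43 73 (by norm_num) (by norm_num) (by norm_num) (by norm_num) h fun h => ?_
  refine two_primes_step 43 73 83 (by norm_num) (by norm_num) (by norm_num) (by norm_num) h fun h => ?_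
  refine two_primes_step 73 83 139 (by norm_num) (by norm_num) (by norm_num) (by norm_num) h fun h => ?_
  refine two_primes_step 83 139 163 (by norm_num) (by norm_num) (by norm_num) (by norm_num) h fun h => ?_
  refine two_primes_step 139 163 277 (by norm_num) (by norm_num) (by norm_num) (by norm_num) h fun h => ?_
  refine two_primes_step 163 277 317 (by norm_num) (by norm_num) (by norm_num) (by norm_num) h fun h => ?_
  refine two_primes_step 277 317 547 (by norm_num) (by norm_num) (by norm_num) (by norm_num) h fun h => ?_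
  refine two_primes_step 317 547 631 (by norm_num) (by norm_num) (by norm_num) (by norm_num) h fun h => ?_
  refine two_primes_step 547 631 1093 (by norm_num) (by norm_num) (by norm_num) (by norm_num) h fun h => ?_
  refine two_primes_step 631 1093 1259 (by norm_num) (by norm_num) (by norm_num) (by norm_num) h fun h => ?_
  refine two_primes_step 1093 1259 2179 (by norm_num) (by norm_num) (by norm_num) (by norm_num) h fun h => ?_
  exact two_primes_large m (by omega)

/-- For `n ≥ 11` there are two primes in `(n / 2, n]`. -/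
theorem two_primes_half (n : ℕ) (hn : 11 ≤ n) :
    ∃ p r : ℕ, p.Prime ∧ r.Prime ∧ n < 2 * p ∧ p < r ∧ r ≤ n := by
  by_cases h : n = 11
  · exact ⟨7, 11, by norm_num, by norm_num, by omega, by norm_num, by omega⟩
  obtain ⟨p, r, hp, hr, h1, h2, h3⟩ := two_primes (n / 2) (by omega)
  exact ⟨p, r, hp, hr, by omega, h2, by omega⟩

end Cfsg.Agent.LinP
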